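import Cfsg.Agent.H672.IF.Fi24A
import Cfsg.Agent.H546.IF.OddBase
import Cfsg.Agent.CpAut.TwoAll

/-!
# S5719: `Fi24'`, `|A|` odd (helper672)

`2 ^ 14` divides `|C(σ)|` for the outer involutions `σ`: conjugation by a transposition or by a product of three
commuting transpositions.
-/

set_option autoImplicit false
set_option maxRecDepth 10000

namespace Cfsg.Agent.H672.IF.Fi24O

open Cfsg Cfsg.Spor Subgroup Cfsg.Agent.R08 Cfsg.Agent.R08.FiTwentyFour Cfsg.Agent.H209.Fxy Cfsg.Agent.H672.IF.Fi24A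
open Cfsg.Agent.R08.TetBasic Cfsg.Agent.R08.TetFi24A
open Cfsg.Agent.CpAutFi24.OutInv Cfsg.Agent.CpAutFi24.Unit Cfsg.Agent.CpAutFi24.Row Cfsg.Agent.H546.IFO

/-- `2 ^ 14` divides the order of the centraliser -/
theorem dvd_of {σ : MulAut Spor.Fi24'} {g : Fi24} (hg : ∀ k : Spor.Fi24', (σ k : Fi24) = g * k * g⁻¹) {B : Subgroup Fi24}
    (hB : ∀ b ∈ B, b ∈ commutator Fi24 ∧ Commute b g) (hc : 2 ^ 14 ∣ Nat.card B) :
    2 ^ 14 ∣ Nat.card (Cfsg.Agent.H383.Cube.fix σ) := by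
  have hfin : Finite Spor.Fi24' := Finite.of_injective _ (commutator Fi24).subtype_injective
  refine dvd_fix (B := B.subgroupOf (commutator Fi24)) ?_ ?_
  · intro b hb
    apply Subtype.ext
    rw [hg, ← (hB b hb).2.eq, mul_inv_cancel_right]
  · rwa [Nat.card_congr (subgroupOfEquivOfLe (fun b hb => (hB b hb).1)).toEquiv]

theorem exists_comm {a : Fi24} (ha : a ∈ L) : ∃ b ∈ L, a ≠ b ∧ Commute a b := by
  have h1 := ncard_commuting ha
  have h2 : {c | c ∈ L ∧ c ≠ a ∧ Commute c a}.Nonempty := by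
    rw [← Set.ncard_pos (Set.toFinite _), h1]
    norm_num
  obtain ⟨b, hb, hne, hc⟩ := h2
  exact ⟨b, hb, hne.symm, hc.symm⟩

theorem out_fi24 : OutP Spor.Fi24' fun σ => 2 ^ 14 ∣ Nat.card (Cfsg.Agent.H383.Cube.fix σ) := by
  intro x hx hout
  obtain ⟨g, hg⟩ := KFacts.FiTF.exists_conj x
  have hxx : x * x = 1 := by rw [← pow_two, ← hx, pow_orderOf_eq_one]
  have hgn : g ∉ commutator Fi24 := by
    intro h
    apply hout ⟨g, h⟩
    ext k
    exact hg k
  have hgg : g * g = 1 := by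
    apply eq_one_of_comm
    intro k hk
    have h1 : x (x ⟨k, hk⟩) = ⟨k, hk⟩ := DFunLike.congr_fun hxx ⟨k, hk⟩
    have h2 := congrArg Subtype.val h1
    rw [hg, hg] at h2
    have h3 : g * (g * k * g⁻¹) * g⁻¹ = k := h2
    calc g * g * k = g * (g * k * g⁻¹) * g⁻¹ * (g * g) := by group
      _ = k * (g * g) := by rw [h3]
  rcases outer_cases hgn hgg with h | ⟨a, b, c, h, rfl⟩
  · obtain ⟨b, hb, hne, hc⟩ := exists_comm h
    refine dvd_of hg (B := Cab g b) (fun y hy => ⟨(mem_C.1 hy).1, (mem_C.1 hy).2.1⟩) ?_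
    rw [card_Cab h hb hne hc]
    norm_num
  · refine dvd_of hg (B := U a b c) ?_ ?_
    · intro y hy
      obtain ⟨h1, h2, h3, h4⟩ := mem_U.1 hy
      exact ⟨h1, (h2.mul_right h3).mul_right h4⟩
    · rw [card_U h]
      norm_num

/-- **`|A|` odd.** -/
theorem killO_fi24 : KillO Spor.Fi24' := by
  have hs : IsSimpleGroup Spor.Fi24' := isFi24'.1
  have hfin : Finite Spor.Fi24' := Finite.of_injective _ (commutator Fi24).subtype_injective
  intro A Γ h
  have hna : ∃ a b : Spor.Fi24', a * b ≠ b * a := by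
    by_contra hcon
    push Not at hcon
    have hn : A.Normal := ⟨fun n hn g => by rwa [hcon g n, mul_inv_cancel_right]⟩
    rcases hn.eq_bot_or_eq_top with h1 | h1
    · exact h.ne_bot h1
    · exact h.ne_top h1
  exact killO_three hna out_fi24 (by rw [isFi24'.2]; norm_num) A Γ h

end Cfsg.Agent.H672.IF.Fi24O
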